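/-
FW: the centraliser of an involution of `PSp₄(q)`, `q` odd.
-/
import Cfsg.Agent.FW.Abs
import Cfsg.Agent.Fus.Sp4Blk
import Cfsg.Agent.Grp.CoresPi
import Cfsg.Agent.S0270

set_option autoImplicit false

namespace CL.FW

open Subgroup Cfsg Matrix CL.Fus.Sp4
open scoped MatrixGroups

universe u

theorem modelPSp4 : ModelPSp4.{u} := fun F _ _ hF => by
  have h2 := two_ne_zero_of_odd hF
  have n1 := SL2.neg_one_ne_one_sl h2
  let π : symplecticGroup (Fin 2) F →* PSp 2 F := QuotientGroup.mk' _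
  have hπ : ∀ g h, π g = π h ↔ h = g ∨ h = g * dd (-1, -1) := fun g h => by
    rw [QuotientGroup.mk'_apply, QuotientGroup.mk'_apply, QuotientGroup.eq, Fus.Sp4.mem_center_iff, inv_mul_eq_one,
      inv_mul_eq_iff_eq_mul, eq_comm]
  have hf : ∀ x y x' y', π (dd (x, y)) = π (dd (x', y')) ↔ x' = x ∧ y' = y ∨ x' = -x ∧ y' = -y := fun x y x' y' => by
    simp [hπ, dd_mul, dd_inj]
  have ht : ∀ x y, π (dd (x, y)) ≠ π tau := fun x y e => by
    rcases (hπ _ _).1 e with e | e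
    exacts [dd_ne_mul_tau (x' := 1) (y' := 1) (by rw [← e, dd_one, one_mul]),
      dd_ne_mul_tau (x' := 1) (y' := 1) (dd_mul.symm.trans (by rw [← e, dd_one, one_mul]))]
  have j1 : π (dd (1, -1)) ≠ 1 := fun e => by simpa [n1, n1.symm] using (hf 1 (-1) 1 1).1 (by rw [e, dd_one, map_one])
  have j2 : orderOf (π (dd (1, -1))) = 2 := orderOf_eq_prime (by rw [sq, ← map_mul, dd_mul]; simp [dd_one]) j1
  have j3 : π (dd (-1, 1)) = π (dd (1, -1)) := by simp [hf]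
  have sup : ((π.comp dd).comp (.inl _ _)).range ⊔ ((π.comp dd).comp (.inr _ _)).range = (π.comp dd).range :=
    le_antisymm (sup_le (fun _ ⟨x, e⟩ => ⟨_, e⟩) fun _ ⟨x, e⟩ => ⟨_, e⟩) (by
      rintro _ ⟨⟨x, y⟩, rfl⟩
      rw [show (x, y) = (x, 1) * (1, y) by simp, map_mul]
      exact mul_mem_sup ⟨x, rfl⟩ ⟨y, rfl⟩)
  have cd : ∀ x y, π (dd (x, y)) ∈ centralizer {π (dd (1, -1))} := fun x y =>
    mem_centralizer_singleton_iff.2 (by simp [← map_mul])
  have ct : π tau ∈ centralizer {π (dd (1, -1))} :=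
    mem_centralizer_singleton_iff.2 (by rw [← map_mul, tau_mul_dd, map_mul, j3])
  have nc : ∀ x, π (dd (x, 1)) ≠ π tau * π (dd (Chev.SL2.up 1, 1)) * (π tau)⁻¹ := fun x e => by
    rw [← map_mul, tau_mul_dd, map_mul, mul_inv_cancel_right] at e
    rcases (hf _ _ _ _).1 e with ⟨-, e⟩ | ⟨-, e⟩ <;>
      simpa [Chev.SL2.up] using congrArg (fun g : SL(2, F) => g.1 0 1) e
  refine ⟨π (dd (1, -1)), ((π.comp dd).comp (.inl _ _)).range, ((π.comp dd).comp (.inr _ _)).range,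
    ⟨(MonoidHom.ofInjective fun x y e => ?_).symm⟩, ⟨(MonoidHom.ofInjective fun x y e => ?_).symm⟩, ?_, j2,
    le_antisymm ?_ (zpowers_le.2 ⟨⟨-1, j3⟩, -1, rfl⟩), ?_, ?_, fun _ hn => ?_, fun e => ?_⟩
  · simpa [n1.symm, eq_comm] using (hf x 1 y 1).1 e
  · simpa [n1.symm, eq_comm] using (hf 1 x 1 y).1 e
  · rintro _ ⟨x, rfl⟩ _ ⟨y, rfl⟩
    simp [← map_mul]
  · rintro _ ⟨⟨x, rfl⟩, y, e⟩
    rcases (hf 1 y x 1).1 e with ⟨rfl, -⟩ | ⟨rfl, -⟩
    exacts [map_one ((π.comp dd).comp (.inl _ _)) ▸ one_mem _, ⟨1, (zpow_one _).trans j3.symm⟩]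
  · rw [sup]
    rintro _ ⟨⟨x, y⟩, rfl⟩
    exact cd x y
  · rw [sup]
    refine index_eq_two_iff_exists_notMem_and.2 ⟨⟨_, ct⟩, fun ⟨⟨x, y⟩, e⟩ => ht x y e, fun ⟨g, hg⟩ => ?_⟩
    obtain ⟨g, rfl⟩ := QuotientGroup.mk'_surjective _ g
    rcases (hπ (dd (1, -1) * g) (g * dd (1, -1))).1 (mem_centralizer_singleton_iff.1 hg).symm with e | e
    · obtain ⟨x, y, rfl⟩ := exists_dd_of_comm h2 e
      exact .inr ⟨_, rfl⟩
    · obtain ⟨x, y, rfl⟩ := exists_dd_of_anticomm h2 (g := g) (by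
        rw [e, mul_assoc, Subgroup.mem_center_iff.1 neg_mem_center, dd_mul']; simp)
      exact .inl ⟨(x, y), congrArg π (show _ = _ * tau * tau by rw [mul_assoc, tau_mul_tau, mul_one])⟩
  · obtain ⟨x, e⟩ := hn.conj_mem ⟨_, cd (Chev.SL2.up 1) 1⟩ ⟨_, rfl⟩ ⟨_, ct⟩
    exact nc x e
  · have := Cfsg.Agent.S0270.result (F := F) 2 le_rfl fun _ => by
      have := GL2.two_le_card (F := F); obtain ⟨k, hk⟩ := hF; omega
    rcases (inferInstance : (oddCore (PSp 2 F)).Normal).eq_bot_or_eq_top with h | h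
    · rw [h, sup_bot_eq] at e
      rcases (inferInstance : (center (PSp 2 F)).Normal).eq_bot_or_eq_top with h | h
      · exact j1 (mem_bot.1 (h ▸ Subgroup.mem_center_iff.2 fun g => mem_centralizer_singleton_iff.1 (e ▸ mem_top g)))
      · exact nc _ (eq_mul_inv_of_mul_eq (Subgroup.mem_center_iff.1 (h ▸ mem_top (π tau)) _))
    · have := (Grp.pPrimeCore_coprime 2 (PSp 2 F)).coprime_dvd_left
        (orderOf_dvd_natCard (oddCore _) (x := π (dd (1, -1))) (h ▸ mem_top _))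
      simp [j2] at this

end CL.FW
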